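import Cfsg.Agent.Lib.Helper7.PrimeIdx.Defs

set_option autoImplicit false

namespace Cfsg.Agent.Lib.Helper62.PrimeIdx
open Cfsg.Agent.Lib.Helper7.PrimeIdx

/-- K3 -/
theorem cnt_map {p : ℕ} {G : Type*} [Group G] (σ : G →* Equiv.Perm (ZMod p)) (α β : MulAut G)
    (g : G) (a c : ZMod p) : cnt σ α β (σ (α (β g)) a) (σ g c) = cnt σ α β a c := by
  unfold cnt
  refine (Nat.card_congr ((σ (β g)).subtypeEquiv fun b => ?_)).symm
  rw [rel_map σ α (β g) a b, rel_map σ β g b c]

/-- K4 -/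
theorem cnt_comm {p : ℕ} [NeZero p] {G : Type*} [Group G] (σ : G →* Equiv.Perm (ZMod p))
    (α β : MulAut G) (x : G) (hx : ∀ i, σ x i = i + 1) (hα : α x = x) (hβ : β x = x)
    (a c : ZMod p) : cnt σ α β a c = cnt σ β α a c := by
  unfold cnt
  refine Nat.card_congr ((Equiv.subLeft (a + c)).subtypeEquiv fun b => ?_)
  rw [Equiv.subLeft_apply, rel_iff_sub σ α x hx hα a b, rel_iff_sub σ β x hx hβ b c,
    rel_iff_sub σ β x hx hβ a (a + c - b), rel_iff_sub σ α x hx hα (a + c - b) c,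
    show a - (a + c - b) = b - c by ring, show a + c - b - c = a - b by ring]
  exact and_comm

/-- K5 -/
theorem cnt_shift {p : ℕ} [NeZero p] {G : Type*} [Group G] (σ : G →* Equiv.Perm (ZMod p))
    (α β : MulAut G) (x : G) (hx : ∀ i, σ x i = i + 1) (hα : α x = x) (hβ : β x = x)
    (a c t : ZMod p) : cnt σ α β (a + t) (c + t) = cnt σ α β a c := by
  unfold cnt
  refine (Nat.card_congr ((Equiv.addRight t).subtypeEquiv fun b => ?_)).symm
  rw [Equiv.coe_addRight, rel_shift σ α x hx hα, rel_shift σ β x hx hβ]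

end Cfsg.Agent.Lib.Helper62.PrimeIdx
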