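import Cfsg.Agent.Lib.Helper7.PrimeIdx.Defs

set_option autoImplicit false

namespace Cfsg.Agent.Lib.Helper62.PrimeIdx
open Cfsg.Agent.Lib.Helper7.PrimeIdx

/-- orbit-stabiliser for an action given by a homomorphism to a symmetric group -/
theorem card_orbit_mul {K X : Type*} [Group K] [Finite K] (τ : K →* Equiv.Perm X) (x0 : X) :
    Nat.card {a : X // ∃ k, τ k x0 = a} *
      Nat.card ((MulAction.stabilizer (Equiv.Perm X) x0).comap τ) = Nat.card K := by
  let _ : MulAction K X := MulAction.compHom X τ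
  have h1 := MulAction.index_stabilizer K x0
  have h2 := Subgroup.index_mul_card (MulAction.stabilizer K x0)
  have h3 : MulAction.stabilizer K x0 = (MulAction.stabilizer (Equiv.Perm X) x0).comap τ := by
    ext k
    rfl
  have h4 : (MulAction.orbit K x0).ncard = Nat.card {a : X // ∃ k, τ k x0 = a} := by
    rw [← Nat.card_coe_set_eq]
    rfl
  rw [h1, h4, h3] at h2
  exact h2

/-- K6 -/
theorem card_block {p : ℕ} [Fact p.Prime] {G : Type*} [Group G] [Finite G]
    (σ : G →* Equiv.Perm (ZMod p)) (α : MulAut G) (x : G) (hx : ∀ i, σ x i = i + 1)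
    (hp2 : ¬ p ^ 2 ∣ Nat.card G) : ¬ p ∣ Nat.card {a : ZMod p // Rel σ α a 0} := by
  intro hdvd
  set Hs : Subgroup G := (MulAction.stabilizer (Equiv.Perm (ZMod p)) (0 : ZMod p)).comap σ with hHs
  have h1 := card_orbit_mul σ (0 : ZMod p)
  have hall : Nat.card {a : ZMod p // ∃ k, σ k 0 = a} = p := by
    rw [Nat.card_congr (Equiv.subtypeUnivEquiv (fun a => ?_)), Nat.card_zmod]
    refine ⟨x ^ a.val, ?_⟩
    rw [shift_pow σ x hx, ZMod.natCast_zmod_val, zero_add]
  rw [hall] at h1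
  have h2 := card_orbit_mul ((σ.comp α.toMonoidHom).comp Hs.subtype) (0 : ZMod p)
  have h3 : Nat.card {a : ZMod p // ∃ k : Hs, ((σ.comp α.toMonoidHom).comp Hs.subtype) k 0 = a}
      = Nat.card {a : ZMod p // Rel σ α a 0} := by
    refine Nat.card_congr (Equiv.subtypeEquivRight fun a => ?_)
    constructor
    · rintro ⟨⟨k, hk⟩, h⟩
      exact ⟨k, hk, h⟩
    · rintro ⟨k, hk, h⟩
      exact ⟨⟨k, hk⟩, h⟩
  rw [h3] at h2
  have h4 : p ∣ Nat.card Hs := hdvd.trans (Dvd.intro _ h2)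
  apply hp2
  rw [← h1, pow_two]
  exact Nat.mul_dvd_mul_left p h4

end Cfsg.Agent.Lib.Helper62.PrimeIdx
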