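import Cfsg.Agent.Lib.Helper7.PrimeIdx.Defs

set_option autoImplicit false

namespace Cfsg.Agent.Lib.Helper62.PrimeIdx
open Cfsg.Agent.Lib.Helper7.PrimeIdx

/-- K7 -/
theorem sum_cnt {p : ℕ} [NeZero p] {G : Type*} [Group G] (σ : G →* Equiv.Perm (ZMod p))
    (α β : MulAut G) (x : G) (hx : ∀ i, σ x i = i + 1) (hα : α x = x) (hβ : β x = x) :
    ∑ a : ZMod p, cnt σ α β a 0
      = Nat.card {a : ZMod p // Rel σ α a 0} * Nat.card {a : ZMod p // Rel σ β a 0} := by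
  unfold cnt
  rw [← Nat.card_sigma, ← Nat.card_prod]
  refine Nat.card_congr
    { toFun := fun q => (⟨q.1 - q.2.1, (rel_iff_sub σ α x hx hα _ _).1 q.2.2.1⟩, ⟨q.2.1, q.2.2.2⟩)
      invFun := fun q => ⟨q.1.1 + q.2.1, ⟨q.2.1, ?_, q.2.2⟩⟩
      left_inv := ?_
      right_inv := ?_ }
  · rw [rel_iff_sub σ α x hx hα, add_sub_cancel_right]
    exact q.1.2
  · rintro ⟨a, b, h1, h2⟩
    exact Sigma.subtype_ext (sub_add_cancel a b) rfl
  · rintro ⟨⟨a, h1⟩, ⟨b, h2⟩⟩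
    simp

end Cfsg.Agent.Lib.Helper62.PrimeIdx
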