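import Cfsg.Agent.Lib.Helper7.PrimeIdx.Defs

set_option autoImplicit false

namespace Cfsg.Agent.Lib.Helper62.PrimeIdx
open Cfsg.Agent.Lib.Helper7.PrimeIdx

/-- K8 -/
theorem dvd_sum_of_period {p : ℕ} [Fact p.Prime] (s : ZMod p → ℕ) (d : ZMod p) (hd : d ≠ 0)
    (hs : ∀ t, s (t + d) = s t) : p ∣ ∑ t : ZMod p, s t := by
  have h1 : ∀ (n : ℕ) (t : ZMod p), s (t + n * d) = s t := by
    intro n
    induction n with
    | zero => intro t; simp
    | succ n ih =>
      intro t
      have : t + ((n + 1 : ℕ) : ZMod p) * d = (t + n * d) + d := by push_cast; ring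
      rw [this, hs, ih]
  have h2 : ∀ t, s t = s 0 := by
    intro t
    have := h1 (t * d⁻¹).val 0
    rw [ZMod.natCast_zmod_val, zero_add, mul_assoc, inv_mul_cancel₀ hd, mul_one] at this
    exact this
  rw [Finset.sum_congr rfl (fun t _ => h2 t), Finset.sum_const, Finset.card_univ, ZMod.card,
    smul_eq_mul]
  exact Dvd.intro _ rfl

end Cfsg.Agent.Lib.Helper62.PrimeIdx
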